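import Cfsg.Agent.H319.FC.Iota
import Cfsg.Agent.H688.FC.F2

/-!
# S5764, SP4G-T4: the torus of order `q ^ 2 + 1` of `Sp_4(q)`: three conjugates (helper688)
-/

set_option autoImplicit false

namespace Cfsg.Agent.H688.FC

open Cfsg
open Cfsg.Agent.H319.FC
open Cfsg.Agent.ClassicalGeometry.SympBasic Cfsg.Agent.ClassicalGeometry.SympAutSemi

universe u

variable {F : Type u} [Field F]

/-- **T4.** -/
theorem t4 [Finite F] [CharP F 2] : StT4 F := by
  intro hq S z hz hodd hirr hinv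
  obtain ⟨c, hC, hco, hreg, hnor, hsemi⟩ := stF2 z hz hodd hirr
  have hsim : IsSimpleGroup (Sp4 F) := simple_sp hq
  have hns := not_solvable_sp (F := F) hq
  have hzD : z ∈ Subgroup.zpowers c := by
    rw [← hC, Subgroup.mem_centralizer_singleton_iff]
  have hc1 : c ≠ 1 := by
    rintro rfl
    rw [Subgroup.zpowers_one_eq_bot, Subgroup.mem_bot] at hzD
    exact hz hzD
  -- `D` is not normal
  obtain ⟨x, hx⟩ : ∃ x : Sp4 F, ¬ ∀ y ∈ Subgroup.zpowers c, x * y * x⁻¹ ∈ Subgroup.zpowers c := by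
    by_contra hcon
    push Not at hcon
    have hn : (Subgroup.zpowers c).Normal := ⟨fun y hy g => hcon g y hy⟩
    rcases hsim.eq_bot_or_eq_top_of_normal _ hn with h | h
    · rw [h, Subgroup.mem_bot] at hzD
      exact hz hzD
    · refine hns (IsSimpleGroup.comm_iff_isSolvable.1 fun a b => ?_)
      have ha : a ∈ Subgroup.zpowers c := by rw [h]; trivial
      have hb : b ∈ Subgroup.zpowers c := by rw [h]; trivial
      obtain ⟨i, rfl⟩ := ha
      obtain ⟨j, rfl⟩ := hb
      rw [← zpow_add, ← zpow_add, add_comm]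
  -- members of `S` preserve `D`
  have hSD : ∀ α ∈ S, ∀ y ∈ Subgroup.zpowers c, α y ∈ Subgroup.zpowers c := by
    intro α hα y hy
    rw [← hC, Subgroup.mem_centralizer_singleton_iff] at hy ⊢
    exact hinv α hα y hy
  -- claim
  have claim : ∀ w ∈ Subgroup.zpowers c, MulAut.conj (x * w * x⁻¹) ∈ S → w = 1 := by
    intro w hw hwS
    by_contra hw1
    have h4 := hnor (x * w * x⁻¹) (fun y hy => hSD _ hwS y hy)
    have hoddm : Odd (orderOf (x * w * x⁻¹)) := by
      have h1 : orderOf (x * w * x⁻¹) = orderOf w := by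
        have := orderOf_injective (MulAut.conj x).toMonoidHom (MulAut.conj x).injective w
        exact this
      rw [h1]
      obtain ⟨i, rfl⟩ := hw
      exact Odd.of_dvd_nat hco (orderOf_dvd_of_mem_zpowers ⟨i, rfl⟩)
    have hm : x * w * x⁻¹ ∈ Subgroup.zpowers c := by
      have hcop : Nat.Coprime 4 (orderOf (x * w * x⁻¹)) := by
        rw [show (4 : ℕ) = 2 ^ 2 by norm_num]
        exact Nat.Coprime.pow_left 2 (Nat.coprime_two_left.2 hoddm)
      obtain ⟨k, hk⟩ := exists_pow_eq_self_of_coprime hcop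
      rw [← hk]
      exact pow_mem h4 k
    have hm1 : x * w * x⁻¹ ≠ 1 := by
      intro h
      exact hw1 (conj_eq_one_iff.1 h)
    have hCm := hreg _ hm hm1
    have hCw := hreg _ hw hw1
    refine hx fun y hy => ?_
    rw [← hCw, Subgroup.mem_centralizer_singleton_iff] at hy
    rw [← hCm, Subgroup.mem_centralizer_singleton_iff]
    calc x * y * x⁻¹ * (x * w * x⁻¹) = x * (y * w) * x⁻¹ := by group
      _ = x * (w * y) * x⁻¹ := by rw [hy]
      _ = x * w * x⁻¹ * (x * y * x⁻¹) := by group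
  refine ⟨![x, x * c, 1], fun α hα hP hi => ?_⟩
  have h0 : MulAut.conj x * α * (MulAut.conj x)⁻¹ ∈ S := hi 0
  have h1 : MulAut.conj (x * c) * α * (MulAut.conj (x * c))⁻¹ ∈ S := hi 1
  have h0' := (conj_mem_iff hα x).1 h0
  have h1' := (conj_mem_iff hα (x * c)).1 h1
  have hcD : c ∈ Subgroup.zpowers c := Subgroup.mem_zpowers c
  have hαc : α c = c := by
    have h2 : MulAut.conj (x * (c * (α c)⁻¹) * x⁻¹) ∈ S := by
      have h3 : MulAut.conj (x * c * (α (x * c))⁻¹ * (x * (α x)⁻¹)⁻¹) ∈ S := by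
        rw [map_mul, map_inv MulAut.conj (x * (α x)⁻¹)]
        exact mul_mem h1' (inv_mem h0')
      have h4 : x * c * (α (x * c))⁻¹ * (x * (α x)⁻¹)⁻¹ = x * (c * (α c)⁻¹) * x⁻¹ := by
        rw [map_mul]
        group
      rwa [h4] at h3
    have h3 := claim _ (mul_mem hcD (inv_mem (hSD α hα c hcD))) h2
    exact (mul_inv_eq_one.1 h3).symm
  obtain ⟨g, rfl⟩ := hP
  obtain ⟨φ, l, hl, hs⟩ := g.2
  have hφ := hsemi g φ l hl hs hαc
  obtain ⟨A, hA, -⟩ := exists_conj_of_linear hl hs hφ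
  rw [hA] at hαc h0 ⊢
  have hAD : A ∈ Subgroup.zpowers c := by
    rw [← hreg c hcD hc1, Subgroup.mem_centralizer_singleton_iff]
    rw [MulAut.conj_apply, mul_inv_eq_iff_eq_mul] at hαc
    exact hαc
  have h5 : A = 1 := by
    refine claim A hAD ?_
    rw [map_mul, map_mul, map_inv]
    exact h0
  rw [h5, map_one]

end Cfsg.Agent.H688.FC
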